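import Cfsg.Agent.H817.DPi.Def
import Cfsg.Prelude.Def_KGroupFacts

/-!
# S4247: the index bound in a configuration (helper704)
-/

set_option autoImplicit false

namespace Cfsg.Agent.H704.DPi

open Subgroup Cfsg Cfsg.Agent.H988.CPi Cfsg.Agent.H571.RV Cfsg.Agent.H817.DPi

universe u

variable {π : Set ℕ} {S : Type u} [Group S] {P : Subgroup S} {K B : Subgroup (MulAut S)}

/-- the elements of `S` which act as elements of `K` centralise `P` modulo the centre -/
theorem comap_centralizes (h : Cfg π P K B) (hZ : center S = ⊥) {s : S} (hs : MulAut.conj s ∈ K) {x : S} (hx : x ∈ P) :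
    s * x = x * s := by
  have h1 := h.fix _ hs x hx
  rw [MulAut.conj_apply, mul_inv_eq_iff_eq_mul] at h1
  exact h1

theorem conj_injective (hZ : center S = ⊥) : Function.Injective (MulAut.conj : S →* MulAut S) := by
  rw [← MonoidHom.ker_eq_bot_iff, eq_bot_iff]
  intro a ha
  rw [← hZ, mem_center_iff]
  intro x
  have h1 : MulAut.conj a x = x := by
    rw [MonoidHom.mem_ker.1 ha]; rfl
  rw [MulAut.conj_apply, mul_inv_eq_iff_eq_mul] at h1
  exact h1.symm

/-- `|S : B ∩ S| ≤ |P| |K|` -/
theorem index_le [Finite S] (h : Cfg π P K B) :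
    (B.comap (MulAut.conj : S →* MulAut S)).index ≤ Nat.card P * Nat.card K := by
  have hf : Finite (MulAut S) := inferInstance
  -- `|S : B ∩ S| = |Inn S : B ∩ Inn S| = |B Inn S : B|`
  have h1 : (B.comap (MulAut.conj : S →* MulAut S)).index = B.relIndex (inn S) := by
    rw [Subgroup.index_comap]; rfl
  have h3 : Nat.card ↥(B ⊔ inn S) ≤ Nat.card P * Nat.card K * Nat.card B := by
    rw [← Nat.card_prod, ← Nat.card_prod]
    have hfac := h.fac
    choose x hx k hk b hb he using hfac
    refine Nat.card_le_card_of_injective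
      (fun g : ↥(B ⊔ inn S) => ((⟨x g g.2, hx g g.2⟩, ⟨k g g.2, hk g g.2⟩), (⟨b g g.2, hb g g.2⟩ : B))) ?_
    intro g g' hgg
    simp only [Prod.mk.injEq, Subtype.mk.injEq] at hgg
    apply Subtype.ext
    rw [he g g.2, he g' g'.2, hgg.1.1, hgg.1.2, hgg.2]
  have h4 : B.relIndex (inn S) * Nat.card B = Nat.card ↥(B ⊔ inn S) := by
    have e1 : Nat.card ↥(B ⊔ inn S) = Nat.card (inn S) * (inn S).relIndex B := by
      rw [← Subgroup.relIndex_sup_right (K := inn S) (H := B), Subgroup.relIndex, ← Subgroup.card_mul_index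
        ((inn S).subgroupOf (B ⊔ inn S)), Nat.card_congr
        (Subgroup.subgroupOfEquivOfLe (le_sup_right : inn S ≤ B ⊔ inn S)).toEquiv]
    have e2 : Nat.card B = Nat.card ↥(B ⊓ inn S) * (inn S).relIndex B := by
      rw [Subgroup.relIndex, ← Subgroup.card_mul_index ((inn S).subgroupOf B)]
      congr 1
      rw [← Subgroup.inf_subgroupOf_left]
      exact Nat.card_congr (Subgroup.subgroupOfEquivOfLe inf_le_left).toEquiv
    have e3 : Nat.card (inn S) = Nat.card ↥(B ⊓ inn S) * B.relIndex (inn S) := by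
      rw [Subgroup.relIndex, ← Subgroup.card_mul_index (B.subgroupOf (inn S))]
      congr 1
      rw [← Subgroup.inf_subgroupOf_right]
      exact Nat.card_congr (Subgroup.subgroupOfEquivOfLe inf_le_right).toEquiv
    rw [e1, e2, e3]
    ring
  rw [h1]
  have h5 : 0 < Nat.card B := Nat.card_pos
  rw [← h4] at h3
  exact Nat.le_of_mul_le_mul_right h3 h5

/-- `|K| ≤ |K ∩ S| |Out S|` -/
theorem card_K_le [Finite S] (hZ : center S = ⊥) (K : Subgroup (MulAut S)) :
    Nat.card K ∣ Nat.card (K.comap (MulAut.conj : S →* MulAut S)) * Nat.card (Cfsg.Out S) := by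
  have hf : Finite (MulAut S) := inferInstance
  have h1 : Nat.card (K.comap (MulAut.conj : S →* MulAut S)) = Nat.card ↥(inn S ⊓ K) := by
    have h2 : ((K.comap (MulAut.conj : S →* MulAut S)).map (MulAut.conj : S →* MulAut S)) = inn S ⊓ K := by
      rw [Subgroup.map_comap_eq]; rfl
    rw [← h2]
    exact (Nat.card_congr ((K.comap (MulAut.conj : S →* MulAut S)).equivMapOfInjective _
      (conj_injective hZ)).toEquiv)
  have h3 : Nat.card K = Nat.card ↥(inn S ⊓ K) * (inn S).relIndex K := by
    rw [Subgroup.relIndex, ← Subgroup.card_mul_index ((inn S).subgroupOf K)]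
    congr 1
    rw [← Subgroup.inf_subgroupOf_right]
    exact Nat.card_congr (Subgroup.subgroupOfEquivOfLe inf_le_right).toEquiv
  have h4 : (inn S).relIndex K ∣ (inn S).index := Subgroup.relIndex_dvd_index_of_normal _ _
  have h5 : (inn S).index = Nat.card (Cfsg.Out S) := rfl
  rw [h1, h3]
  rw [h5] at h4
  exact Nat.mul_dvd_mul_left _ h4

theorem comap_ne_top [Finite S] (h : Cfg π P K B) (hZ : center S = ⊥) :
    B.comap (MulAut.conj : S →* MulAut S) ≠ ⊤ := by
  have hf : Finite (MulAut S) := inferInstance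
  intro h0
  apply h.nnil
  have h1 : inn S ≤ B := by
    rintro _ ⟨s, rfl⟩
    have : s ∈ B.comap (MulAut.conj : S →* MulAut S) := by rw [h0]; exact mem_top s
    exact this
  have h2 : Nat.card P ∣ Nat.card B := by
    refine (Subgroup.card_subgroup_dvd_card P).trans ?_
    have h3 : Nat.card S = Nat.card (inn S) :=
      Nat.card_congr (MonoidHom.ofInjective (conj_injective hZ)).toEquiv
    rw [h3]
    exact Subgroup.card_dvd_of_le h1
  have h3 : Nat.card P = 1 := by
    refine eq_one_of_both (π := π) ?_ (h.piB.of_dvd h2)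
    exact fun p hp hd => h.hall.1 p hp hd
  have : Subsingleton P := (Nat.card_eq_one_iff_unique.1 h3).1
  infer_instance

/-- **The index bound**: if all proper subgroups have index at least `m`, then `m ≤ |P| |K ∩ S| |Out S|`. -/
theorem min_le [Finite S] (h : Cfg π P K B) (hZ : center S = ⊥) {m : ℕ}
    (hm : ∀ H : Subgroup S, H ≠ ⊤ → m ≤ H.index) :
    m ≤ Nat.card P * Nat.card (K.comap (MulAut.conj : S →* MulAut S)) * Nat.card (Cfsg.Out S) := by
  have hf : Finite (MulAut S) := inferInstance
  have h1 := (hm _ (comap_ne_top h hZ)).trans (index_le h)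
  refine h1.trans ?_
  rw [mul_assoc]
  exact Nat.mul_le_mul_left _ (Nat.le_of_dvd (Nat.mul_pos Nat.card_pos Nat.card_pos) (card_K_le hZ K))

/-- `K ∩ S` is a `π'`-group -/
theorem piN_comap [Finite S] (h : Cfg π P K B) (hZ : center S = ⊥) :
    PiN' π (Nat.card (K.comap (MulAut.conj : S →* MulAut S))) := by
  have hf : Finite (MulAut S) := inferInstance
  refine h.piK.of_dvd ?_
  have h1 := Nat.card_congr ((K.comap (MulAut.conj : S →* MulAut S)).equivMapOfInjective _
      (conj_injective hZ)).toEquiv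
  rw [h1]
  exact Subgroup.card_dvd_of_le (Subgroup.map_comap_le _ _)

end Cfsg.Agent.H704.DPi
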